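import Cfsg.Agent.H613.KS.Props
import Cfsg.Agent.H644.Maximal
import Cfsg.Agent.H649.Transport
import Cfsg.Agent.S0973

/-!
# S4577: A5, A6, A7, A7' (helper610)

* `a5_of` : the configuration of a block with a character of positive height, from A13, A2, A3, A4;
* `A6` : quotient of a configuration by an odd centre;
* `A7`, `A7'` : transport along isomorphisms.
-/

set_option autoImplicit false

open Cfsg Cfsg.Agent.H613.KS

namespace Cfsg.Agent.H610.KS

universe u

/-! ### A5 -/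

section A5

variable {G : Type u} [Group G] [Finite G] {M : Ideal AlgInt} {B : Set (IrrCharacter G)} {D : Subgroup G}

/-- A block of `C_G(D)` inducing `B` and its stabilizer. -/
theorem exists_pair (hM : IsPModular 2 M) (hB : IsPBlock M B) (hD : IsDefectGroup 2 M B D) (h16 : E16 D) :
    ∃ (c : Set (IrrCharacter ↥(Subgroup.centralizer (D : Set G)))) (T : Subgroup G),
      IsInducedBlock M (Subgroup.centralizer (D : Set G)) c B ∧
      IsDefectGroup 2 M c (D.subgroupOf (Subgroup.centralizer (D : Set G))) ∧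
      ∀ g : G, g ∈ T ↔ (g ∈ Subgroup.normalizer (D : Set G) ∧
        StabilizesBlock (Subgroup.centralizer (D : Set G)) c g) := by
  have : Fact (Nat.Prime 2) := ⟨Nat.prime_two⟩
  have : M.IsPrime := hM.2.1.isPrime
  have hcomm : ∀ x ∈ D, ∀ y ∈ D, x * y = y * x := by
    intro x hx y hy
    have h1 := h16.inv _ (D.mul_mem hx hy)
    have h2 := h16.inv x hx
    have h3 := h16.inv y hy
    have e1 : x⁻¹ = x := inv_eq_of_mul_eq_one_left h2
    have e2 : y⁻¹ = y := inv_eq_of_mul_eq_one_left h3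
    have e3 : (x * y)⁻¹ = x * y := inv_eq_of_mul_eq_one_left h1
    rw [← e3, mul_inv_rev, e1, e2]
  have hDC : D ≤ Subgroup.centralizer (D : Set G) := by
    intro x hx
    rw [Subgroup.mem_centralizer_iff]
    intro y hy
    exact hcomm y hy x hx
  have hL : D ⊔ Subgroup.centralizer (D : Set G) = Subgroup.centralizer (D : Set G) :=
    sup_eq_right.2 hDC
  have key : ∀ L : Subgroup G, L = D ⊔ Subgroup.centralizer (D : Set G) →
      ∃ b : Set (IrrCharacter L), IsDefectGroup 2 M b (D.subgroupOf L) ∧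
        IsInducedBlock M L b B := by
    rintro L rfl
    exact (S0973.result 2 M hM B hB D hD).1
  obtain ⟨c, hcD, hc⟩ := key _ hL.symm
  exact ⟨c, H644.pairStab M D c, hc, hcD, fun g => H644.mem_pairStab_iff_stabilizesBlock hM hc.1⟩

/-- **A5**, from A13, A2, A3, A4. -/
theorem a5_of (h13 : Props.PA13.{u}) (h2 : Props.PA2.{u}) (h3 : Props.PA3c.{u}) (h4 : Props.PA4.{u}) :
    Props.PA5.{u} := by
  intro G _ _ M hM B hB D hD h16 χ hχ hh
  obtain ⟨c, T, hc, -, hT⟩ := exists_pair hM hB hD h16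
  have h5 : 5 ∣ (Subgroup.centralizer (D : Set G)).relIndex T := by
    by_contra h5
    exact hh (h4 hM hB hD h16 c hc T hT h5 χ hχ)
  obtain ⟨θ, hθ, hker, hzero, ⟨y, hy, hinv⟩, hodd⟩ := h3 hM hB hD h16 c hc T hT h5
  obtain ⟨x, hx1, hx2, hx3, hx4⟩ := h13 hM hB hD h16 c hc
  have hc0 : Cfg D x := ⟨h16, hx1, hx2, hx3, ⟨y, hy⟩, h2 hM hB hD h16⟩
  exact ⟨x, θ, ⟨hc0, hker, hzero, ⟨y, hy, hinv⟩, hodd, hx4 θ hθ⟩⟩

end A5

/-! ### A6 -/

/-- the commutator of a 2-element with an element, if it is a central element of odd order -/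
theorem comm_of_central {K : Type*} [Group K] {g x z : K} (hz : z ∈ Subgroup.center K) (hodd : Odd (orderOf z))
    {k : ℕ} (hg : g ^ 2 ^ k = 1) (h : g * x * g⁻¹ = z * x) : g * x = x * g := by
  have hzc : ∀ a : K, a * z = z * a := Subgroup.mem_center_iff.1 hz
  have key : ∀ n : ℕ, g ^ n * x * (g ^ n)⁻¹ = z ^ n * x := by
    intro n
    induction n with
    | zero => simp
    | succ n ih =>
      have e1 : g ^ (n + 1) * x * (g ^ (n + 1))⁻¹ = g * (g ^ n * x * (g ^ n)⁻¹) * g⁻¹ := by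
        rw [pow_succ']; group
      have e2 : g * z ^ n = z ^ n * g := ((show Commute g z from hzc g).pow_right n).eq
      rw [e1, ih, ← mul_assoc g, e2, mul_assoc (z ^ n), mul_assoc (z ^ n), h, pow_succ, mul_assoc]
  have h1 := key (2 ^ k)
  rw [hg, one_mul, inv_one, mul_one] at h1
  have h2 : z ^ 2 ^ k = 1 := by
    have h3 : z ^ 2 ^ k * x = 1 * x := by rw [one_mul]; exact h1.symm
    exact mul_right_cancel h3
  have h3 : orderOf z ∣ 2 ^ k := orderOf_dvd_of_pow_eq_one h2
  have h4 : orderOf z = 1 := Nat.Coprime.eq_one_of_dvd ((Nat.Coprime.pow_right k hodd.coprime_two_right)) h3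
  rw [orderOf_eq_one_iff.1 h4, one_mul] at h
  exact mul_inv_eq_iff_eq_mul.1 h

/-- an element commuting with `x` modulo a central subgroup of odd order -/
theorem comm_of_mk {K : Type*} [Group K] [Finite K] {Z : Subgroup K} [Z.Normal] (hZ : Z ≤ Subgroup.center K)
    (hodd : Odd (Nat.card Z)) {g x : K} {k : ℕ} (hg : g ^ 2 ^ k = 1)
    (h : (g : K ⧸ Z) * (x : K ⧸ Z) = (x : K ⧸ Z) * (g : K ⧸ Z)) : g * x = x * g := by
  have h1 : ((g * x * g⁻¹ * x⁻¹ : K) : K ⧸ Z) = 1 := by
    rw [QuotientGroup.mk_mul, QuotientGroup.mk_mul, QuotientGroup.mk_mul, h, QuotientGroup.mk_inv, QuotientGroup.mk_inv]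
    group
  have h2 : g * x * g⁻¹ * x⁻¹ ∈ Z := (QuotientGroup.eq_one_iff _).1 h1
  refine comm_of_central (z := g * x * g⁻¹ * x⁻¹) (hZ h2) ?_ hg (by group)
  have h3 : orderOf (⟨g * x * g⁻¹ * x⁻¹, h2⟩ : Z) ∣ Nat.card Z := orderOf_dvd_natCard _
  rw [Subgroup.orderOf_mk] at h3
  exact Odd.of_dvd_nat hodd h3

/-- lift of a 2-subgroup -/
theorem exists_lift {K : Type*} [Group K] [Finite K] {Z : Subgroup K} [Z.Normal] (hZ : Z ≤ Subgroup.center K)
    (hodd : Odd (Nat.card Z)) {Q : Subgroup (K ⧸ Z)} (hQ : IsPGroup 2 Q) :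
    ∃ P : Subgroup K, IsPGroup 2 P ∧ P.map (QuotientGroup.mk' Z) = Q ∧
      ∀ g : K, (g : K ⧸ Z) ∈ Q → (∃ k : ℕ, g ^ 2 ^ k = 1) → g ∈ P := by
  have : Fact (Nat.Prime 2) := ⟨Nat.prime_two⟩
  set N : Subgroup K := Q.comap (QuotientGroup.mk' Z) with hN
  obtain ⟨P⟩ : Nonempty (Sylow 2 N) := inferInstance
  let f : N →* Q := (QuotientGroup.mk' Z).subgroupComap Q
  have hf : Function.Surjective f := by
    rintro ⟨q, hq⟩
    obtain ⟨g, rfl⟩ := QuotientGroup.mk'_surjective Z q
    exact ⟨⟨g, hq⟩, rfl⟩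
  have hfP : (P : Subgroup N).map f = ⊤ := by
    have h1 : ((P : Subgroup N).map f).index ∣ (P : Subgroup N).index := Subgroup.index_map_dvd _ hf
    have h2 : ¬ 2 ∣ (P : Subgroup N).index := P.not_dvd_index
    obtain ⟨k, hk⟩ := IsPGroup.iff_card.1 hQ
    have h3 : ((P : Subgroup N).map f).index ∣ 2 ^ k := by
      rw [← hk]
      exact Subgroup.index_dvd_card _
    obtain ⟨j, -, hj⟩ := (Nat.dvd_prime_pow Nat.prime_two).1 h3
    rw [← Subgroup.index_eq_one, hj]
    rcases Nat.eq_zero_or_pos j with h0 | h0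
    · rw [h0, pow_zero]
    · exfalso
      apply h2
      refine (dvd_pow_self 2 h0.ne').trans ?_
      rw [← hj]
      exact h1
  have hcov : ∀ q ∈ Q, ∃ g ∈ (P : Subgroup N).map N.subtype, (g : K ⧸ Z) = q := by
    intro q hq
    have h1 : (⟨q, hq⟩ : Q) ∈ (P : Subgroup N).map f := by rw [hfP]; exact Subgroup.mem_top _
    obtain ⟨g, hg, hgq⟩ := h1
    exact ⟨g, ⟨g, hg, rfl⟩, congrArg Subtype.val hgq⟩
  have hPp : IsPGroup 2 ((P : Subgroup N).map N.subtype) := P.isPGroup'.map _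
  refine ⟨(P : Subgroup N).map N.subtype, hPp, ?_, ?_⟩
  · ext q
    constructor
    · rintro ⟨_, ⟨g, -, rfl⟩, rfl⟩
      exact g.2
    · intro hq
      obtain ⟨g, hg, hgq⟩ := hcov q hq
      exact ⟨g, hg, hgq⟩
  · rintro g hg ⟨k, hk⟩
    obtain ⟨a, ha, haq⟩ := hcov _ hg
    have hz : a⁻¹ * g ∈ Z := QuotientGroup.eq.1 haq
    have hc : ∀ b : K, b * (a⁻¹ * g) = (a⁻¹ * g) * b := Subgroup.mem_center_iff.1 (hZ hz)
    obtain ⟨l, hl⟩ := hPp ⟨a, ha⟩
    have hl' : a ^ 2 ^ l = 1 := congrArg Subtype.val hl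
    have hcm : Commute a (a⁻¹ * g) := hc a
    have h1 : (a⁻¹ * g) ^ 2 ^ (k + l) = 1 := by
      have e1 : g = a * (a⁻¹ * g) := by group
      have e2 : g ^ 2 ^ (k + l) = a ^ 2 ^ (k + l) * (a⁻¹ * g) ^ 2 ^ (k + l) := by
        conv_lhs => rw [e1]
        exact hcm.mul_pow _
      have e3 : g ^ 2 ^ (k + l) = 1 := by rw [pow_add, pow_mul, hk, one_pow]
      have e4 : a ^ 2 ^ (k + l) = 1 := by rw [add_comm, pow_add, pow_mul, hl', one_pow]
      rw [e3, e4, one_mul] at e2
      exact e2.symm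
    have h2 : orderOf (a⁻¹ * g) ∣ 2 ^ (k + l) := orderOf_dvd_of_pow_eq_one h1
    have h3 : orderOf (⟨a⁻¹ * g, hz⟩ : Z) ∣ Nat.card Z := orderOf_dvd_natCard _
    rw [Subgroup.orderOf_mk] at h3
    have h4 : Odd (orderOf (a⁻¹ * g)) := Odd.of_dvd_nat hodd h3
    have h5 : orderOf (a⁻¹ * g) = 1 := Nat.Coprime.eq_one_of_dvd ((Nat.Coprime.pow_right _ h4.coprime_two_right)) h2
    have h6 : a⁻¹ * g = 1 := orderOf_eq_one_iff.1 h5
    rw [← inv_mul_eq_one.1 h6]
    exact ha

theorem pGroup_of_e16 {G : Type*} [Group G] {D : Subgroup G} (h : E16 D) : ∀ d ∈ D, d ^ 2 ^ 1 = 1 := by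
  intro d hd
  rw [pow_one, pow_two]
  exact h.inv d hd

/-- **A6** for a central subgroup of odd order. -/
theorem cfg_quot {K : Type*} [Group K] [Finite K] {Z : Subgroup K} [Z.Normal] (hZ : Z ≤ Subgroup.center K)
    (hodd : Odd (Nat.card Z)) {D : Subgroup K} {x : K} (h : Cfg D x) :
    Cfg (D.map (QuotientGroup.mk' Z)) (x : K ⧸ Z) := by
  have hinj : ∀ a ∈ D, (a : K ⧸ Z) = 1 → a = 1 := by
    intro a ha h1
    have hz : a ∈ Z := (QuotientGroup.eq_one_iff _).1 h1
    have h3 : orderOf (⟨a, hz⟩ : Z) ∣ Nat.card Z := orderOf_dvd_natCard _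
    rw [Subgroup.orderOf_mk] at h3
    have h4 : Odd (orderOf a) := Odd.of_dvd_nat hodd h3
    have h5 : orderOf a ∣ 2 ^ 1 := orderOf_dvd_of_pow_eq_one (pGroup_of_e16 h.e16 a ha)
    exact orderOf_eq_one_iff.1 (Nat.Coprime.eq_one_of_dvd ((Nat.Coprime.pow_right _ h4.coprime_two_right)) h5)
  refine
    { e16 := ⟨?_, ?_⟩
      odd := ?_
      comm := ?_
      syl := ?_
      five := ?_
      rad := ?_ }
  · rw [← h.e16.card]
    symm
    refine Nat.card_congr (Equiv.ofBijective (fun d : D => (⟨QuotientGroup.mk' Z d, ⟨d, d.2, rfl⟩⟩ : D.map (QuotientGroup.mk' Z)))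
      ⟨?_, ?_⟩)
    · intro a b hab
      have h1 : ((a : K) : K ⧸ Z) = ((b : K) : K ⧸ Z) := congrArg Subtype.val hab
      have h2 := hinj ((a : K)⁻¹ * b) (D.mul_mem (D.inv_mem a.2) b.2) ((QuotientGroup.eq_one_iff _).2 (QuotientGroup.eq.1 h1))
      exact Subtype.ext (inv_mul_eq_one.1 h2)
    · rintro ⟨_, ⟨d, hd, rfl⟩⟩
      exact ⟨⟨d, hd⟩, rfl⟩
  · rintro _ ⟨d, hd, rfl⟩
    rw [← map_mul, h.e16.inv d hd, map_one]
  · exact Odd.of_dvd_nat h.odd (orderOf_map_dvd (QuotientGroup.mk' Z) x)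
  · rintro _ ⟨d, hd, rfl⟩
    have := congrArg (QuotientGroup.mk' Z) (h.comm d hd)
    rwa [map_mul, map_mul] at this
  · intro Q hQ hQx
    obtain ⟨P, hP, hPQ, -⟩ := exists_lift hZ hodd hQ
    obtain ⟨c, hc, hcP⟩ := h.syl P hP (by
      intro q hq
      obtain ⟨k, hk⟩ := hP ⟨q, hq⟩
      exact comm_of_mk hZ hodd (k := k) (congrArg Subtype.val hk) (hQx _ (by rw [← hPQ]; exact ⟨q, hq, rfl⟩)))
    refine ⟨(c : K ⧸ Z), ?_, ?_⟩
    · rw [← QuotientGroup.mk_mul, hc, QuotientGroup.mk_mul]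
    · intro q hq
      rw [← hPQ] at hq
      obtain ⟨g, hg, rfl⟩ := hq
      exact ⟨c * g * c⁻¹, hcP g hg, rfl⟩
  · obtain ⟨y, hy⟩ := h.five
    refine ⟨(y : K ⧸ Z), ?_, ?_, ?_⟩
    · intro d
      obtain ⟨d, rfl⟩ := QuotientGroup.mk'_surjective Z d
      constructor
      · rintro ⟨e, he, hed⟩
        have h1 : y⁻¹ * e * y ∈ D := by
          rw [← hy.norm]
          have : y * (y⁻¹ * e * y) * y⁻¹ = e := by group
          rwa [this]
        refine ⟨_, h1, ?_⟩
        rw [map_mul, map_mul, hed, map_inv]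
        show (y : K ⧸ Z)⁻¹ * ((y : K ⧸ Z) * (d : K ⧸ Z) * (y : K ⧸ Z)⁻¹) * (y : K ⧸ Z) = (d : K ⧸ Z)
        group
      · rintro ⟨e, he, hed⟩
        refine ⟨y * e * y⁻¹, (hy.norm e).2 he, ?_⟩
        rw [map_mul, map_mul, hed, map_inv]
        rfl
    · obtain ⟨m, hm⟩ := hy.five
      have h1 : orderOf (y : K ⧸ Z) ∣ 5 ^ m := by
        rw [← hm]
        exact orderOf_map_dvd (QuotientGroup.mk' Z) y
      obtain ⟨j, -, hj⟩ := (Nat.dvd_prime_pow (by norm_num)).1 h1
      exact ⟨j, hj⟩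
    · intro A hA hAy
      rcases hy.irr (D ⊓ A.comap (QuotientGroup.mk' Z)) inf_le_left (by
        rintro a ⟨ha, ha'⟩
        refine ⟨(hy.norm a).2 ha, ?_⟩
        show QuotientGroup.mk' Z (y * a * y⁻¹) ∈ A
        rw [map_mul, map_mul, map_inv]
        exact hAy _ ha') with h1 | h1
      · left
        rw [eq_bot_iff]
        intro a ha
        obtain ⟨d, hd, rfl⟩ := hA ha
        have h2 : d ∈ D ⊓ A.comap (QuotientGroup.mk' Z) := ⟨hd, ha⟩
        rw [h1, Subgroup.mem_bot] at h2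
        rw [Subgroup.mem_bot, h2, map_one]
      · right
        refine le_antisymm hA ?_
        rintro _ ⟨d, hd, rfl⟩
        have h2 : d ∈ D ⊓ A.comap (QuotientGroup.mk' Z) := by rw [h1]; exact hd
        exact h2.2
  · intro R hR N hN hNR hNn
    obtain ⟨P, hP, hPN, hPmem⟩ := exists_lift hZ hodd hN
    -- the preimage of `R` in `D`
    let R' : Subgroup K := D ⊓ R.comap (QuotientGroup.mk' Z)
    have hR' : ∀ r ∈ R', r ∈ D ∧ (r : K ⧸ Z) ∈ R := fun r hr => ⟨hr.1, hr.2⟩
    have hRc : ∀ c : K, c ∈ Subgroup.centralizer (R' : Set K) → (c : K ⧸ Z) ∈ Subgroup.centralizer (R : Set (K ⧸ Z)) := by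
      intro c hc
      rw [Subgroup.mem_centralizer_iff]
      intro r hr
      obtain ⟨d, hd, rfl⟩ := hR hr
      have h1 := Subgroup.mem_centralizer_iff.1 hc d ⟨hd, hr⟩
      have := congrArg (QuotientGroup.mk' Z) h1
      rwa [map_mul, map_mul] at this
    have h1 := h.rad R' inf_le_left P hP ?_ ?_
    · intro n hn
      rw [← hPN] at hn
      obtain ⟨g, hg, rfl⟩ := hn
      exact ⟨g, h1 hg, rfl⟩
    · intro g hg
      rw [Subgroup.mem_centralizer_iff]
      intro r hr
      obtain ⟨hr1, hr2⟩ := hR' r hr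
      have h2 : (g : K ⧸ Z) ∈ N := by rw [← hPN]; exact ⟨g, hg, rfl⟩
      have h3 := Subgroup.mem_centralizer_iff.1 (hNR h2) _ hr2
      exact comm_of_mk hZ hodd (k := 1) (pGroup_of_e16 h.e16 r hr1) h3
    · intro c hc g hg
      apply hPmem
      · rw [QuotientGroup.mk_mul, QuotientGroup.mk_mul, QuotientGroup.mk_inv]
        apply hNn _ (hRc c hc)
        rw [← hPN]
        exact ⟨g, hg, rfl⟩
      · obtain ⟨k, hk⟩ := hP ⟨g, hg⟩
        have hk' : g ^ 2 ^ k = 1 := congrArg Subtype.val hk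
        exact ⟨k, by rw [conj_pow, hk', mul_one, mul_inv_cancel]⟩

/-- **A6**: quotient by an odd centre. -/
theorem A6 {K : Type u} [Group K] [Finite K] (hZ : Odd (Nat.card ↥(Subgroup.center K))) {D : Subgroup K} {x : K}
    (h : Cfg D x) : Cfg (D.map (QuotientGroup.mk' (Subgroup.center K))) (x : K ⧸ Subgroup.center K) :=
  cfg_quot le_rfl hZ h

/-! ### A7 -/

/-- transport of a configuration -/
theorem cfg_map {S S' : Type*} [Group S] [Group S'] (e : S ≃* S') {D : Subgroup S} {x : S} (h : Cfg D x) :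
    Cfg (D.map e.toMonoidHom) (e x) := by
  have hmem : ∀ g : S', g ∈ D.map e.toMonoidHom ↔ e.symm g ∈ D := fun g => Subgroup.mem_map_equiv
  have hpull : ∀ {Q : Subgroup S'}, IsPGroup 2 Q → IsPGroup 2 (Q.map e.symm.toMonoidHom) := fun hQ => hQ.map _
  have hmemQ : ∀ (Q : Subgroup S') (g : S), g ∈ Q.map e.symm.toMonoidHom ↔ e g ∈ Q := by
    intro Q g
    exact Subgroup.mem_map_equiv
  refine
    { e16 := ⟨?_, ?_⟩
      odd := ?_
      comm := ?_
      syl := ?_
      five := ?_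
      rad := ?_ }
  · rw [← h.e16.card]
    exact (Nat.card_congr (D.equivMapOfInjective e.toMonoidHom e.injective).toEquiv).symm
  · rintro _ ⟨d, hd, rfl⟩
    rw [← map_mul, h.e16.inv d hd, map_one]
  · rw [MulEquiv.orderOf_eq]
    exact h.odd
  · rintro _ ⟨d, hd, rfl⟩
    show e d * e x = e x * e d
    rw [← map_mul, h.comm d hd, map_mul]
  · intro Q hQ hQx
    obtain ⟨c, hc, hcQ⟩ := h.syl (Q.map e.symm.toMonoidHom) (hpull hQ) (by
      intro q hq
      apply e.injective
      rw [map_mul, map_mul]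
      exact hQx _ ((hmemQ Q q).1 hq))
    refine ⟨e c, by rw [← map_mul, hc, map_mul], fun q hq => ?_⟩
    rw [hmem, map_mul, map_mul, map_inv, e.symm_apply_apply]
    exact hcQ _ ((hmemQ Q _).2 (by rwa [e.apply_symm_apply]))
  · obtain ⟨y, hy⟩ := h.five
    refine ⟨e y, ?_, ?_, ?_⟩
    · intro d
      rw [hmem, hmem, map_mul, map_mul, map_inv, e.symm_apply_apply]
      exact hy.norm _
    · rw [MulEquiv.orderOf_eq]
      exact hy.five
    · intro A hA hAy
      rcases hy.irr (A.map e.symm.toMonoidHom) (by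
        intro a ha
        have h2 := hA ((hmemQ A a).1 ha)
        rwa [hmem, e.symm_apply_apply] at h2) (by
        intro a ha
        rw [hmemQ, map_mul, map_mul, map_inv]
        exact hAy _ ((hmemQ A a).1 ha)) with h1 | h1
      · left
        rw [eq_bot_iff]
        intro a ha
        have h2 : e.symm a ∈ A.map e.symm.toMonoidHom := (hmemQ A _).2 (by rwa [e.apply_symm_apply])
        rw [h1, Subgroup.mem_bot] at h2
        rw [Subgroup.mem_bot, ← e.apply_symm_apply a, h2, map_one]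
      · right
        refine le_antisymm hA fun a ha => ?_
        have h2 : e.symm a ∈ A.map e.symm.toMonoidHom := by rw [h1]; exact (hmem a).1 ha
        have h3 := (hmemQ A _).1 h2
        rwa [e.apply_symm_apply] at h3
  · intro R hR N hN hNR hNn
    have h1 := h.rad (R.map e.symm.toMonoidHom) ?_ (N.map e.symm.toMonoidHom) (hpull hN) ?_ ?_
    · intro n hn
      rw [hmem]
      exact h1 ((hmemQ N _).2 (by rwa [e.apply_symm_apply]))
    · intro r hr
      have h2 := hR ((hmemQ R r).1 hr)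
      rwa [hmem, e.symm_apply_apply] at h2
    · intro n hn
      rw [Subgroup.mem_centralizer_iff]
      intro r hr
      apply e.injective
      rw [map_mul, map_mul]
      exact Subgroup.mem_centralizer_iff.1 (hNR ((hmemQ N n).1 hn)) _ ((hmemQ R r).1 hr)
    · intro c hc n hn
      rw [hmemQ, map_mul, map_mul, map_inv]
      apply hNn
      · rw [Subgroup.mem_centralizer_iff]
        intro r hr
        have h2 := Subgroup.mem_centralizer_iff.1 hc (e.symm r) ((hmemQ R _).2 (by rwa [e.apply_symm_apply]))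
        have h3 := congrArg e h2
        rwa [map_mul, map_mul, e.apply_symm_apply] at h3
      · exact (hmemQ N n).1 hn

/-- **A7**: transport. -/
theorem A7 {S S' : Type*} [Group S] [Group S'] (e : S ≃* S') (h : NoCfg S') : NoCfg S :=
  fun _ _ hc => h _ _ (cfg_map e hc)

theorem five_map {S S' : Type*} [Group S] [Group S'] (e : S ≃* S') {D : Subgroup S} {y : S} (h : Five D y) :
    Five (D.map e.toMonoidHom) (e y) := by
  have hmem : ∀ g : S', g ∈ D.map e.toMonoidHom ↔ e.symm g ∈ D := fun g => Subgroup.mem_map_equiv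
  have hmemQ : ∀ (Q : Subgroup S') (g : S), g ∈ Q.map e.symm.toMonoidHom ↔ e g ∈ Q := by
    intro Q g
    exact Subgroup.mem_map_equiv
  refine ⟨?_, ?_, ?_⟩
  · intro d
    rw [hmem, hmem, map_mul, map_mul, map_inv, e.symm_apply_apply]
    exact h.norm _
  · rw [MulEquiv.orderOf_eq]
    exact h.five
  · intro A hA hAy
    rcases h.irr (A.map e.symm.toMonoidHom) (by
      intro a ha
      have h2 := hA ((hmemQ A a).1 ha)
      rwa [hmem, e.symm_apply_apply] at h2) (by
      intro a ha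
      rw [hmemQ, map_mul, map_mul, map_inv]
      exact hAy _ ((hmemQ A a).1 ha)) with h1 | h1
    · left
      rw [eq_bot_iff]
      intro a ha
      have h2 : e.symm a ∈ A.map e.symm.toMonoidHom := (hmemQ A _).2 (by rwa [e.apply_symm_apply])
      rw [h1, Subgroup.mem_bot] at h2
      rw [Subgroup.mem_bot, ← e.apply_symm_apply a, h2, map_one]
    · right
      refine le_antisymm hA fun a ha => ?_
      have h2 : e.symm a ∈ A.map e.symm.toMonoidHom := by rw [h1]; exact (hmem a).1 ha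
      have h3 := (hmemQ A _).1 h2
      rwa [e.apply_symm_apply] at h3

/-- the centralizers of `D` and of its image -/
def centEquiv {S S' : Type*} [Group S] [Group S'] (e : S ≃* S') (D : Subgroup S) :
    ↥(Subgroup.centralizer (D : Set S)) ≃* ↥(Subgroup.centralizer ((D.map e.toMonoidHom : Subgroup S') : Set S')) where
  toFun c := ⟨e c, by
    rw [Subgroup.mem_centralizer_iff]
    rintro _ ⟨d, hd, rfl⟩
    show e d * e c = e c * e d
    rw [← map_mul, Subgroup.mem_centralizer_iff.1 c.2 d hd, map_mul]⟩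
  invFun c := ⟨e.symm c, by
    rw [Subgroup.mem_centralizer_iff]
    intro d hd
    apply e.injective
    rw [map_mul, map_mul, e.apply_symm_apply]
    exact Subgroup.mem_centralizer_iff.1 c.2 _ ⟨d, hd, rfl⟩⟩
  left_inv c := Subtype.ext (e.symm_apply_apply _)
  right_inv c := Subtype.ext (e.apply_symm_apply _)
  map_mul' a b := Subtype.ext (map_mul e (a : S) (b : S))

/-- **A7** for the configurations of blocks -/
theorem cfgB_map {S S' : Type*} [Group S] [Group S'] (e : S ≃* S') {D : Subgroup S} {x : S}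
    {θ : IrrCharacter ↥(Subgroup.centralizer (D : Set S))} (h : CfgB D x θ) :
    CfgB (D.map e.toMonoidHom) (e x) (H649.irrMap (centEquiv e D) θ) := by
  have hmem : ∀ g : S', g ∈ D.map e.toMonoidHom ↔ e.symm g ∈ D := fun g => Subgroup.mem_map_equiv
  -- the characters
  have hinv : ∀ y : S, (∀ c c' : ↥(Subgroup.centralizer (D : Set S)), (c' : S) = y * c * y⁻¹ →
      (θ : ↥(Subgroup.centralizer (D : Set S)) → ℂ) c' = (θ : ↥(Subgroup.centralizer (D : Set S)) → ℂ) c) ↔
      ∀ c c' : ↥(Subgroup.centralizer ((D.map e.toMonoidHom : Subgroup S') : Set S')), (c' : S') = e y * c * (e y)⁻¹ →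
        (H649.irrMap (centEquiv e D) θ : ↥(Subgroup.centralizer ((D.map e.toMonoidHom : Subgroup S') : Set S')) → ℂ) c' =
          (H649.irrMap (centEquiv e D) θ : ↥(Subgroup.centralizer ((D.map e.toMonoidHom : Subgroup S') : Set S')) → ℂ) c := by
    intro y
    constructor
    · intro h1 c c' hcc
      rw [H649.irrMap_apply, H649.irrMap_apply]
      apply h1
      show e.symm c' = y * e.symm c * y⁻¹
      rw [hcc, map_mul, map_mul, map_inv, e.symm_apply_apply]
    · intro h1 c c' hcc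
      have h2 := h1 (centEquiv e D c) (centEquiv e D c') (by
        show e c' = e y * e c * (e y)⁻¹
        rw [hcc, map_mul, map_mul, map_inv])
      rwa [H649.irrMap_apply', H649.irrMap_apply'] at h2
  refine
    { toCfg := cfg_map e h.toCfg
      ker := ?_
      zero := ?_
      inv := ?_
      odd2 := ?_
      ne := ?_ }
  · intro d c hd
    rw [H649.irrMap_apply, H649.irrMap_apply, map_mul]
    exact h.ker _ _ ((hmem _).1 hd)
  · rw [H649.charDegree_irrMap, ← Nat.card_congr (centEquiv e D).toEquiv]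
    exact h.zero
  · obtain ⟨y, hy, hi⟩ := h.inv
    exact ⟨e y, five_map e hy, (hinv y).1 hi⟩
  · intro g hg hk hi d hd
    obtain ⟨g, rfl⟩ := e.surjective g
    obtain ⟨d, rfl⟩ := e.surjective d
    have h1 := h.odd2 g (by
      intro d
      have h2 := hg (e d)
      rw [hmem, hmem, map_mul, map_mul, map_inv, e.symm_apply_apply, e.symm_apply_apply] at h2
      exact h2) (by
      obtain ⟨k, hk⟩ := hk
      exact ⟨k, by rw [← hk, MulEquiv.orderOf_eq]⟩) ((hinv g).2 hi) d (by
      rwa [hmem, e.symm_apply_apply] at hd)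
    rw [← map_mul, h1, map_mul]
  · intro hx
    have h1 : x ∈ Subgroup.centralizer (D : Set S) := by
      rw [Subgroup.mem_centralizer_iff]
      exact fun d hd => h.comm d hd
    have h2 : (⟨e x, hx⟩ : ↥(Subgroup.centralizer ((D.map e.toMonoidHom : Subgroup S') : Set S'))) =
        centEquiv e D ⟨x, h1⟩ := rfl
    rw [h2, H649.irrMap_apply']
    exact h.ne h1

/-- **A7** for `NoCfgB` -/
theorem A7B {S S' : Type*} [Group S] [Group S'] [Finite S] [Finite S'] (e : S ≃* S') (h : NoCfgB S') : NoCfgB S :=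
  fun _ _ _ hc => h _ _ _ (cfgB_map e hc)

/-- a group without configurations -/
theorem NoCfg.noCfgB {S : Type*} [Group S] [Finite S] (h : NoCfg S) : NoCfgB S := fun _ _ _ hc => h _ _ hc.toCfg

/-- a quasisimple group with odd centre: it is enough to exclude the configurations in the simple group -/
theorem noCfg_of_quot {K : Type u} [Group K] [Finite K] (hZ : Odd (Nat.card ↥(Subgroup.center K)))
    (h : NoCfg (K ⧸ Subgroup.center K)) : NoCfg K := fun _ _ hc => h _ _ (A6 hZ hc)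

theorem e16_map {S S' : Type*} [Group S] [Group S'] (e : S ≃* S') {D : Subgroup S} (h : E16 D) :
    E16 (D.map e.toMonoidHom) := by
  refine ⟨?_, ?_⟩
  · rw [← h.card]
    exact (Nat.card_congr (D.equivMapOfInjective e.toMonoidHom e.injective).toEquiv).symm
  · rintro _ ⟨d, hd, rfl⟩
    rw [← map_mul, h.inv d hd, map_one]

/-- **A7'**: transport. -/
theorem A7' {S S' : Type*} [Group S] [Group S'] [Finite S] [Finite S'] (e : S ≃* S') (h : HZ S') : HZ S := by
  intro M hM B hB D hD h16 χ hχ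
  have h1 := h M hM (H649.blkMap e B) (H649.isPBlock_blkMap hB) (D.map e.toMonoidHom) (H649.isDefectGroup_blkMap hD)
    (e16_map e h16) (H649.irrMap e χ) (H649.irrMap_mem_blkMap.2 hχ)
  rwa [H649.blockHeight_blkMap] at h1

end Cfsg.Agent.H610.KS
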